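import Mathlib
import Cfsg.Agent.Lib.Helper4.FXSP.Defs
import Cfsg.Agent.Lib.Helper94.Symp
import Cfsg.Agent.Lib.Helper40.Symp

/-!
# FXSP (S5975): common tools for the normal forms [NFM], [NFP]

A family of vectors with the Gram matrix of the standard basis is the family of columns of an
element of `spGL`; two elements of `GL` with the same normal form with respect to such bases are
conjugate in `spGL`.
-/

set_option autoImplicit false

namespace Cfsg.Agent.Lib.Helper8.FXSP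

open Cfsg Cfsg.Agent.Lib.Helper4.FXSP Cfsg.Agent.Lib.Helper94
open scoped MatrixGroups Matrix

universe u

variable {F : Type u} [Field F]

theorem mulVec_expand (d : ℕ) (M : Md d F) (u : Vd d F) :
    M *ᵥ u = ∑ i, u i • (M *ᵥ (Pi.single i 1 : Vd d F)) := by
  classical
  have hu : u = ∑ i, u i • (Pi.single i 1 : Vd d F) := by
    funext j
    simp [Finset.sum_apply, Pi.single_apply]
  conv_lhs => rw [hu]
  rw [Matrix.mulVec_sum]
  simp only [Matrix.mulVec_smul]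

theorem sf_expand (d : ℕ) (M : Md d F) (u v : Vd d F) :
    sympForm d F (M *ᵥ u) (M *ᵥ v) =
      ∑ i, ∑ j, u i * v j *
        sympForm d F (M *ᵥ (Pi.single i 1 : Vd d F)) (M *ᵥ (Pi.single j 1 : Vd d F)) := by
  rw [mulVec_expand d M u, mulVec_expand d M v, sf_sum_left]
  apply Finset.sum_congr rfl
  intro i _
  rw [sf_sum_right]
  apply Finset.sum_congr rfl
  intro j _
  rw [sf_smul_left, sf_smul_right]
  ring

/-- vectors with the Gram matrix of the standard basis are the columns of an element of `spGL` -/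
theorem exists_spGL_of_gram (d : ℕ) (b : Fin d ⊕ Fin d → Vd d F)
    (hb : ∀ i j, sympForm d F (b i) (b j) =
      sympForm d F (Pi.single i 1 : Vd d F) (Pi.single j 1 : Vd d F)) :
    ∃ g ∈ spGL d F, ∀ i, (g : Md d F) *ᵥ (Pi.single i 1 : Vd d F) = b i := by
  classical
  obtain ⟨M, hMdef⟩ : ∃ M : Md d F, M = Matrix.of fun r c => b c r := ⟨_, rfl⟩
  have hM : ∀ i, M *ᵥ (Pi.single i 1 : Vd d F) = b i := by
    intro i
    rw [Matrix.mulVec_single_one, hMdef]
    funext r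
    rfl
  have hpres : ∀ u v, sympForm d F (M *ᵥ u) (M *ᵥ v) = sympForm d F u v := by
    intro u v
    have h1 := sf_expand d M u v
    have h2 := sf_expand d (1 : Md d F) u v
    simp only [Matrix.one_mulVec] at h2
    rw [h1, h2]
    simp only [hM, hb]
  have hinj : Function.Injective M.mulVec := by
    intro u u' h
    by_contra hne
    have hne' : u - u' ≠ 0 := sub_ne_zero.mpr hne
    obtain ⟨w, hw⟩ := Cfsg.Agent.Lib.Helper40.exists_sympForm_eq_one d (u - u') hne'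
    have h3 : M *ᵥ (u - u') = 0 := by
      rw [Matrix.mulVec_sub]
      exact sub_eq_zero.mpr h
    have h4 := hpres (u - u') w
    rw [h3, sf_zero_left, hw] at h4
    exact zero_ne_one h4
  have hU : IsUnit M := Matrix.mulVec_injective_iff_isUnit.mp hinj
  refine ⟨hU.unit, ?_, ?_⟩
  · rw [mem_spGL_iff]
    intro u v
    rw [hU.unit_spec]
    exact hpres u v
  · intro i
    rw [hU.unit_spec]
    exact hM i

/-- two elements with the same normal form `N` in symplectic bases are conjugate in `spGL` -/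
theorem conj_of_normal_form (d : ℕ) (N : Md d F) (x₁ x₂ g₁ g₂ : GL (Fin d ⊕ Fin d) F)
    (hg₁ : g₁ ∈ spGL d F) (hg₂ : g₂ ∈ spGL d F)
    (h₁ : (x₁ : Md d F) * (g₁ : Md d F) = (g₁ : Md d F) * N)
    (h₂ : (x₂ : Md d F) * (g₂ : Md d F) = (g₂ : Md d F) * N) :
    ∃ g ∈ spGL d F, g⁻¹ * x₁ * g = x₂ := by
  refine ⟨g₁ * g₂⁻¹, (spGL d F).mul_mem hg₁ ((spGL d F).inv_mem hg₂), ?_⟩
  have e1 : ((g₁⁻¹ * x₁ * g₁ : GL (Fin d ⊕ Fin d) F) : Md d F) = N := by
    rw [Units.val_mul, Units.val_mul, mul_assoc, h₁, ← mul_assoc, ← Units.val_mul,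
      inv_mul_cancel, Units.val_one, one_mul]
  have e2 : ((g₂⁻¹ * x₂ * g₂ : GL (Fin d ⊕ Fin d) F) : Md d F) = N := by
    rw [Units.val_mul, Units.val_mul, mul_assoc, h₂, ← mul_assoc, ← Units.val_mul,
      inv_mul_cancel, Units.val_one, one_mul]
  have e : g₁⁻¹ * x₁ * g₁ = g₂⁻¹ * x₂ * g₂ := Units.ext (e1.trans e2.symm)
  calc (g₁ * g₂⁻¹)⁻¹ * x₁ * (g₁ * g₂⁻¹) = g₂ * (g₁⁻¹ * x₁ * g₁) * g₂⁻¹ := by group
    _ = g₂ * (g₂⁻¹ * x₂ * g₂) * g₂⁻¹ := by rw [e]
    _ = x₂ := by group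

theorem sf_single_inl_inl (d : ℕ) (a c : Fin d) :
    sympForm d F (Pi.single (Sum.inl a) 1 : Vd d F) (Pi.single (Sum.inl c) 1 : Vd d F) = 0 := by
  rw [sf_eq]
  simp [Pi.single_apply]

theorem sf_single_inr_inr (d : ℕ) (a c : Fin d) :
    sympForm d F (Pi.single (Sum.inr a) 1 : Vd d F) (Pi.single (Sum.inr c) 1 : Vd d F) = 0 := by
  rw [sf_eq]
  simp [Pi.single_apply]

theorem sf_single_inr_inl (d : ℕ) (a c : Fin d) :
    sympForm d F (Pi.single (Sum.inr a) 1 : Vd d F) (Pi.single (Sum.inl c) 1 : Vd d F) =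
      if a = c then 1 else 0 := by
  rw [sf_eq]
  rcases eq_or_ne a c with rfl | h
  · simp [Pi.single_apply]
  · simp [Pi.single_apply, h, h.symm]

theorem sf_single_inl_inr (d : ℕ) (a c : Fin d) :
    sympForm d F (Pi.single (Sum.inl a) 1 : Vd d F) (Pi.single (Sum.inr c) 1 : Vd d F) =
      if a = c then -1 else 0 := by
  rw [sf_eq]
  rcases eq_or_ne a c with rfl | h
  · simp [Pi.single_apply]
  · simp [Pi.single_apply, h, h.symm]

/-- four vectors forming a symplectic basis of `F^4` are the columns of an element of `spGL` -/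
theorem exists_spGL_of_four (v₁ u₁ v₂ u₂ : Vd 2 F)
    (h11 : sympForm 2 F u₁ v₁ = 1) (h22 : sympForm 2 F u₂ v₂ = 1)
    (hvv : sympForm 2 F v₁ v₂ = 0) (hvu : sympForm 2 F v₁ u₂ = 0)
    (huv : sympForm 2 F u₁ v₂ = 0) (huu : sympForm 2 F u₁ u₂ = 0) :
    ∃ g ∈ spGL 2 F, (g : Md 2 F) *ᵥ (Pi.single (Sum.inl 0) 1 : Vd 2 F) = v₁ ∧
      (g : Md 2 F) *ᵥ (Pi.single (Sum.inr 0) 1 : Vd 2 F) = u₁ ∧
      (g : Md 2 F) *ᵥ (Pi.single (Sum.inl 1) 1 : Vd 2 F) = v₂ ∧
      (g : Md 2 F) *ᵥ (Pi.single (Sum.inr 1) 1 : Vd 2 F) = u₂ := by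
  have k11 : sympForm 2 F v₁ u₁ = -1 := by rw [sf_swap, h11]
  have k22 : sympForm 2 F v₂ u₂ = -1 := by rw [sf_swap, h22]
  have kvv : sympForm 2 F v₂ v₁ = 0 := by rw [sf_swap, hvv, neg_zero]
  have kvu : sympForm 2 F u₂ v₁ = 0 := by rw [sf_swap, hvu, neg_zero]
  have kuv : sympForm 2 F v₂ u₁ = 0 := by rw [sf_swap, huv, neg_zero]
  have kuu : sympForm 2 F u₂ u₁ = 0 := by rw [sf_swap, huu, neg_zero]
  have hgram : ∀ i j, sympForm 2 F ((Sum.elim ![v₁, v₂] ![u₁, u₂] : Fin 2 ⊕ Fin 2 → Vd 2 F) i)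
      ((Sum.elim ![v₁, v₂] ![u₁, u₂] : Fin 2 ⊕ Fin 2 → Vd 2 F) j) =
      sympForm 2 F (Pi.single i 1 : Vd 2 F) (Pi.single j 1 : Vd 2 F) := by
    intro i j
    rcases i with a | a <;> rcases j with c | c <;> fin_cases a <;> fin_cases c <;>
      simp [sf_single_inl_inl, sf_single_inr_inr, sf_single_inr_inl, sf_single_inl_inr, sf_self,
        h11, h22, hvv, hvu, huv, huu, k11, k22, kvv, kvu, kuv, kuu]
  obtain ⟨g, hg, hgb⟩ := exists_spGL_of_gram 2 (Sum.elim ![v₁, v₂] ![u₁, u₂]) hgram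
  exact ⟨g, hg, hgb (Sum.inl 0), hgb (Sum.inr 0), hgb (Sum.inl 1), hgb (Sum.inr 1)⟩

theorem exists_sq_add_sq [Fintype F] (h2 : (2 : F) ≠ 0) (c : F) :
    ∃ a b : F, a ^ 2 + b ^ 2 = c := by
  classical
  have hodd : Fintype.card F % 2 = 1 := by
    apply FiniteField.odd_card_of_char_ne_two
    intro h
    haveI := ringChar.of_eq h
    exact h2 (CharTwo.two_eq_zero)
  have hf : (Polynomial.X ^ 2 : Polynomial F).degree = 2 := Polynomial.degree_X_pow 2
  have hg : (Polynomial.X ^ 2 - Polynomial.C c : Polynomial F).degree = 2 :=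
    Polynomial.degree_X_pow_sub_C (by decide) _
  obtain ⟨a, b, hab⟩ := FiniteField.exists_root_sum_quadratic hf hg hodd
  refine ⟨a, b, ?_⟩
  simp only [Polynomial.eval_pow, Polynomial.eval_X, Polynomial.eval_sub, Polynomial.eval_C] at hab
  linear_combination hab

theorem J_mulVec_single_inl (d : ℕ) (a : Fin d) :
    Matrix.J (Fin d) F *ᵥ (Pi.single (Sum.inl a) 1 : Vd d F) = Pi.single (Sum.inr a) 1 := by
  rw [Matrix.mulVec_single_one]
  funext r
  rcases r with r | r <;> simp [Matrix.J, Pi.single_apply, Matrix.one_apply]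

theorem J_mulVec_single_inr (d : ℕ) (a : Fin d) :
    Matrix.J (Fin d) F *ᵥ (Pi.single (Sum.inr a) 1 : Vd d F) = -Pi.single (Sum.inl a) 1 := by
  rw [Matrix.mulVec_single_one]
  funext r
  rcases r with r | r <;> simp [Matrix.J, Pi.single_apply, Matrix.one_apply]

end Cfsg.Agent.Lib.Helper8.FXSP
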