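import Mathlib
import Cfsg.Agent.Lib.Helper8.FXSP.NFBase

/-!
# FXSP (S5975): [NFM], elements of `Sp_4(q)`, `q` odd, with square `-1` are conjugate
-/

set_option autoImplicit false

namespace Cfsg.Agent.Lib.Helper8.FXSP

open Cfsg Cfsg.Agent.Lib.Helper4.FXSP Cfsg.Agent.Lib.Helper94
open scoped MatrixGroups Matrix

universe u

variable {F : Type u} [Field F]

/-- the normal form of an element with square `-1` -/
theorem nfm_one [Fintype F] (h2 : (2 : F) ≠ 0) (x : GL (Fin 2 ⊕ Fin 2) F) (hx : x ∈ spGL 2 F)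
    (hsq : (x : Md 2 F) * (x : Md 2 F) = -1) :
    ∃ g ∈ spGL 2 F, (x : Md 2 F) * (g : Md 2 F) = (g : Md 2 F) * Matrix.J (Fin 2) F := by
  classical
  have hpres : ∀ u v, sympForm 2 F ((x : Md 2 F) *ᵥ u) ((x : Md 2 F) *ᵥ v) = sympForm 2 F u v :=
    (mem_spGL_iff 2 x).mp hx
  obtain ⟨X, hX⟩ : ∃ X : Md 2 F, X = (x : Md 2 F) := ⟨_, rfl⟩
  rw [← hX] at hsq hpres ⊢
  have hTT : ∀ v : Vd 2 F, X *ᵥ (X *ᵥ v) = -v := by
    intro v
    rw [Matrix.mulVec_mulVec, hsq, Matrix.neg_mulVec, Matrix.one_mulVec]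
  have hneg : ∀ v w : Vd 2 F, sympForm 2 F (-v) w = -sympForm 2 F v w := by
    intro v w
    rw [show (-v : Vd 2 F) = (-1 : F) • v by simp, sf_smul_left]
    ring
  have hnegr : ∀ v w : Vd 2 F, sympForm 2 F v (-w) = -sympForm 2 F v w := by
    intro v w
    rw [show (-w : Vd 2 F) = (-1 : F) • w by simp, sf_smul_right]
    ring
  have hX0 : ∀ v : Vd 2 F, v ≠ 0 → X *ᵥ v ≠ 0 := by
    intro v hv h
    apply hv
    have h1 := hTT v
    rw [h, Matrix.mulVec_zero] at h1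
    exact neg_eq_zero.mp h1.symm
  -- `h(v, w) = f(X v, w)` is symmetric
  have hsym : ∀ v w : Vd 2 F, sympForm 2 F (X *ᵥ v) w = sympForm 2 F (X *ᵥ w) v := by
    intro v w
    have h1 := hpres (X *ᵥ v) w
    rw [hTT, hneg] at h1
    rw [← h1, sf_swap 2 (X *ᵥ w) v]
  -- `f(v, X w) = - f(X v, w)`
  have hadj : ∀ v w : Vd 2 F, sympForm 2 F v (X *ᵥ w) = -sympForm 2 F (X *ᵥ v) w := by
    intro v w
    rw [sf_swap 2 v (X *ᵥ w), hsym w v]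
  have hpol : ∀ w w' : Vd 2 F, sympForm 2 F (X *ᵥ w) w' ≠ 0 →
      sympForm 2 F (X *ᵥ w) w ≠ 0 ∨ sympForm 2 F (X *ᵥ w') w' ≠ 0 ∨
        sympForm 2 F (X *ᵥ (w + w')) (w + w') ≠ 0 := by
    intro w w' h
    by_contra hc
    push Not at hc
    obtain ⟨h1, h3, h4⟩ := hc
    rw [Matrix.mulVec_add, sf_add_left, sf_add_right, sf_add_right, h1, h3, hsym w' w] at h4
    apply h
    have h5 : (2 : F) * sympForm 2 F (X *ᵥ w) w' = 0 := by linear_combination h4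
    exact (mul_eq_zero.mp h5).resolve_left h2
  have hresc : ∀ v : Vd 2 F, sympForm 2 F (X *ᵥ v) v ≠ 0 → ∃ a b : F,
      sympForm 2 F (X *ᵥ (a • v + b • X *ᵥ v)) (a • v + b • X *ᵥ v) = 1 := by
    intro v hv
    obtain ⟨a, b, hab⟩ := exists_sq_add_sq h2 (sympForm 2 F (X *ᵥ v) v)⁻¹
    refine ⟨a, b, ?_⟩
    rw [Matrix.mulVec_add, Matrix.mulVec_smul, Matrix.mulVec_smul, hTT]
    simp only [sf_add_left, sf_add_right, sf_smul_left, sf_smul_right, hneg]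
    have hs : sympForm 2 F v (X *ᵥ v) = -sympForm 2 F (X *ᵥ v) v := sf_swap 2 _ _
    rw [hs, sf_self, sf_self]
    linear_combination (sympForm 2 F (X *ᵥ v) v) * hab + mul_inv_cancel₀ hv
  -- step 1
  obtain ⟨v₁, hv₁⟩ : ∃ v₁ : Vd 2 F, sympForm 2 F (X *ᵥ v₁) v₁ = 1 := by
    have he : (Pi.single (Sum.inl 0) 1 : Vd 2 F) ≠ 0 := by
      intro h
      have := congrFun h (Sum.inl 0)
      simp at this
    obtain ⟨z, hz⟩ := Cfsg.Agent.Lib.Helper40.exists_sympForm_eq_one 2 _ (hX0 _ he)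
    have hz' : sympForm 2 F (X *ᵥ (Pi.single (Sum.inl 0) 1 : Vd 2 F)) z ≠ 0 := by
      rw [hz]
      exact one_ne_zero
    rcases hpol _ _ hz' with h | h | h
    · obtain ⟨a, b, hab⟩ := hresc _ h
      exact ⟨_, hab⟩
    · obtain ⟨a, b, hab⟩ := hresc _ h
      exact ⟨_, hab⟩
    · obtain ⟨a, b, hab⟩ := hresc _ h
      exact ⟨_, hab⟩
  have hv₁' : sympForm 2 F v₁ (X *ᵥ v₁) = -1 := by rw [sf_swap, hv₁]
  -- step 2: the orthogonal complement of `⟨v₁, X v₁⟩`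
  obtain ⟨P, hP⟩ : ∃ P : Vd 2 F → Vd 2 F, ∀ z, P z =
      z + ((-sympForm 2 F (X *ᵥ v₁) z) • v₁ + (sympForm 2 F v₁ z) • X *ᵥ v₁) := ⟨_, fun _ => rfl⟩
  have hP1 : ∀ z, sympForm 2 F v₁ (P z) = 0 := by
    intro z
    rw [hP]
    simp only [sf_add_right, sf_smul_right, sf_self, hv₁']
    ring
  have hP2 : ∀ z, sympForm 2 F (X *ᵥ v₁) (P z) = 0 := by
    intro z
    rw [hP]
    simp only [sf_add_right, sf_smul_right, sf_self, hv₁]
    ring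
  -- closure of the complement
  have hW : ∀ v : Vd 2 F, sympForm 2 F v₁ v = 0 → sympForm 2 F (X *ᵥ v₁) v = 0 → ∀ a b : F,
      sympForm 2 F v₁ (a • v + b • X *ᵥ v) = 0 ∧
        sympForm 2 F (X *ᵥ v₁) (a • v + b • X *ᵥ v) = 0 := by
    intro v h1 h3 a b
    constructor
    · rw [sf_add_right, sf_smul_right, sf_smul_right, hadj, h1, h3]
      ring
    · rw [sf_add_right, sf_smul_right, sf_smul_right, hpres, h1, h3]
      ring
  obtain ⟨z₀, hz₀⟩ : ∃ z₀, P z₀ ≠ 0 := by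
    by_contra hall
    push Not at hall
    have hsurj : Function.Surjective (fun ab : F × F => ab.1 • v₁ + ab.2 • X *ᵥ v₁) := by
      intro z
      refine ⟨(sympForm 2 F (X *ᵥ v₁) z, -sympForm 2 F v₁ z), ?_⟩
      have h1 := hall z
      rw [hP] at h1
      have h3 : z = -((-sympForm 2 F (X *ᵥ v₁) z) • v₁ + (sympForm 2 F v₁ z) • X *ᵥ v₁) :=
        eq_neg_of_add_eq_zero_left h1
      calc (sympForm 2 F (X *ᵥ v₁) z) • v₁ + (-sympForm 2 F v₁ z) • X *ᵥ v₁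
          = -((-sympForm 2 F (X *ᵥ v₁) z) • v₁ + (sympForm 2 F v₁ z) • X *ᵥ v₁) := by module
        _ = z := h3.symm
    have hcard := Fintype.card_le_of_surjective _ hsurj
    rw [Fintype.card_fun, Fintype.card_sum, Fintype.card_fin, Fintype.card_prod] at hcard
    have hq : 1 < Fintype.card F := Fintype.one_lt_card
    nlinarith [Nat.mul_le_mul hq hq, pow_succ (Fintype.card F) 3]
  obtain ⟨w₀, hw₀⟩ : ∃ w₀, w₀ = P z₀ := ⟨_, rfl⟩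
  rw [← hw₀] at hz₀
  have hw₀1 : sympForm 2 F v₁ w₀ = 0 := by rw [hw₀]; exact hP1 z₀
  have hw₀2 : sympForm 2 F (X *ᵥ v₁) w₀ = 0 := by rw [hw₀]; exact hP2 z₀
  obtain ⟨z₁, hz₁⟩ := Cfsg.Agent.Lib.Helper40.exists_sympForm_eq_one 2 _ (hX0 _ hz₀)
  have hw₁ : sympForm 2 F (X *ᵥ w₀) (P z₁) ≠ 0 := by
    have h1 : sympForm 2 F (X *ᵥ w₀) v₁ = 0 := by rw [hsym, hw₀2]
    have h3 : sympForm 2 F (X *ᵥ w₀) (X *ᵥ v₁) = 0 := by rw [hpres, sf_swap, hw₀1, neg_zero]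
    rw [hP, sf_add_right, sf_add_right, sf_smul_right, sf_smul_right, h1, h3, hz₁]
    simp
  obtain ⟨v₂, hv₂, hv₂1, hv₂2⟩ : ∃ v₂ : Vd 2 F, sympForm 2 F (X *ᵥ v₂) v₂ = 1 ∧
      sympForm 2 F v₁ v₂ = 0 ∧ sympForm 2 F (X *ᵥ v₁) v₂ = 0 := by
    rcases hpol _ _ hw₁ with h | h | h
    · obtain ⟨a, b, hab⟩ := hresc _ h
      exact ⟨_, hab, (hW _ hw₀1 hw₀2 a b).1, (hW _ hw₀1 hw₀2 a b).2⟩
    · obtain ⟨a, b, hab⟩ := hresc _ h
      exact ⟨_, hab, (hW _ (hP1 z₁) (hP2 z₁) a b).1, (hW _ (hP1 z₁) (hP2 z₁) a b).2⟩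
    · obtain ⟨a, b, hab⟩ := hresc _ h
      have k1 : sympForm 2 F v₁ (w₀ + P z₁) = 0 := by rw [sf_add_right, hw₀1, hP1, add_zero]
      have k2 : sympForm 2 F (X *ᵥ v₁) (w₀ + P z₁) = 0 := by
        rw [sf_add_right, hw₀2, hP2, add_zero]
      exact ⟨_, hab, (hW _ k1 k2 a b).1, (hW _ k1 k2 a b).2⟩
  obtain ⟨g, hg, hg1, hg2, hg3, hg4⟩ := exists_spGL_of_four v₁ (X *ᵥ v₁) v₂ (X *ᵥ v₂) hv₁ hv₂
    hv₂1 (by rw [hadj, hv₂2, neg_zero]) hv₂2 (by rw [hpres, hv₂1])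
  refine ⟨g, hg, ?_⟩
  apply Matrix.ext_of_mulVec_single
  intro i
  rw [← Matrix.mulVec_mulVec, ← Matrix.mulVec_mulVec]
  rcases i with a | a <;> fin_cases a
  · simp only [Fin.zero_eta]
    rw [J_mulVec_single_inl, hg1, hg2]
  · simp only [Fin.mk_one]
    rw [J_mulVec_single_inl, hg3, hg4]
  · simp only [Fin.zero_eta]
    rw [J_mulVec_single_inr, Matrix.mulVec_neg, hg2, hg1, hTT]
  · simp only [Fin.mk_one]
    rw [J_mulVec_single_inr, Matrix.mulVec_neg, hg4, hg3, hTT]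

/-- [NFM] -/
theorem pkgNFM : PkgNFM.{u} := by
  intro F _ _ h2 x₁ hx₁ x₂ hx₂ hs₁ hs₂
  obtain ⟨g₁, hg₁, e₁⟩ := nfm_one h2 x₁ hx₁ hs₁
  obtain ⟨g₂, hg₂, e₂⟩ := nfm_one h2 x₂ hx₂ hs₂
  exact conj_of_normal_form 2 _ x₁ x₂ g₁ g₂ hg₁ hg₂ e₁ e₂

end Cfsg.Agent.Lib.Helper8.FXSP
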