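import Mathlib
import Cfsg.Agent.Lib.Helper8.FXSP.NFBase

/-!
# FXSP (S5975): [NFP], involutions other than `±1` of `Sp_4(q)`, `q` odd, are conjugate
-/

set_option autoImplicit false

namespace Cfsg.Agent.Lib.Helper8.FXSP

open Cfsg Cfsg.Agent.Lib.Helper4.FXSP Cfsg.Agent.Lib.Helper94
open scoped MatrixGroups Matrix

universe u

variable {F : Type u} [Field F]

/-- the normal form of an involution other than `±1` -/
theorem nfp_one (h2 : (2 : F) ≠ 0) (x : GL (Fin 2 ⊕ Fin 2) F) (hx : x ∈ spGL 2 F)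
    (hsq : (x : Md 2 F) * (x : Md 2 F) = 1) (hne1 : (x : Md 2 F) ≠ 1)
    (hne2 : (x : Md 2 F) ≠ -1) :
    ∃ g ∈ spGL 2 F, (x : Md 2 F) * (g : Md 2 F) =
      (g : Md 2 F) * Matrix.diagonal (Sum.elim ![1, -1] ![1, -1]) := by
  classical
  have hpres : ∀ u v, sympForm 2 F ((x : Md 2 F) *ᵥ u) ((x : Md 2 F) *ᵥ v) = sympForm 2 F u v :=
    (mem_spGL_iff 2 x).mp hx
  obtain ⟨X, hX⟩ : ∃ X : Md 2 F, X = (x : Md 2 F) := ⟨_, rfl⟩
  rw [← hX] at hsq hne1 hne2 hpres ⊢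
  have hTT : ∀ v : Vd 2 F, X *ᵥ (X *ᵥ v) = v := by
    intro v
    rw [Matrix.mulVec_mulVec, hsq, Matrix.one_mulVec]
  have hneg : ∀ v w : Vd 2 F, sympForm 2 F (-v) w = -sympForm 2 F v w := by
    intro v w
    rw [show (-v : Vd 2 F) = (-1 : F) • v by simp, sf_smul_left]
    ring
  have hnegr : ∀ v w : Vd 2 F, sympForm 2 F v (-w) = -sympForm 2 F v w := by
    intro v w
    rw [show (-w : Vd 2 F) = (-1 : F) • w by simp, sf_smul_right]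
    ring
  -- a vector not fixed, a vector not negated
  obtain ⟨z, hz⟩ : ∃ z : Vd 2 F, X *ᵥ z ≠ z := by
    by_contra hall
    push Not at hall
    apply hne1
    apply Matrix.ext_of_mulVec_single
    intro i
    rw [hall, Matrix.one_mulVec]
  obtain ⟨z', hz'⟩ : ∃ z' : Vd 2 F, X *ᵥ z' ≠ -z' := by
    by_contra hall
    push Not at hall
    apply hne2
    apply Matrix.ext_of_mulVec_single
    intro i
    rw [hall, Matrix.neg_mulVec, Matrix.one_mulVec]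
  -- eigenvectors
  obtain ⟨v₁, hv₁def⟩ : ∃ v₁ : Vd 2 F, v₁ = z' + X *ᵥ z' := ⟨_, rfl⟩
  obtain ⟨v₂, hv₂def⟩ : ∃ v₂ : Vd 2 F, v₂ = z - X *ᵥ z := ⟨_, rfl⟩
  have hv₁0 : v₁ ≠ 0 := by
    intro h
    apply hz'
    rw [hv₁def] at h
    exact (eq_neg_of_add_eq_zero_right h)
  have hv₂0 : v₂ ≠ 0 := by
    intro h
    apply hz
    rw [hv₂def] at h
    exact (sub_eq_zero.mp h).symm
  have hXv₁ : X *ᵥ v₁ = v₁ := by
    rw [hv₁def, Matrix.mulVec_add, hTT, add_comm]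
  have hXv₂ : X *ᵥ v₂ = -v₂ := by
    rw [hv₂def, Matrix.mulVec_sub, hTT, neg_sub]
  have horth : ∀ p m : Vd 2 F, X *ᵥ p = p → X *ᵥ m = -m → sympForm 2 F p m = 0 := by
    intro p m hp hm
    have h1 := hpres p m
    rw [hp, hm, hnegr] at h1
    have h3 : (2 : F) * sympForm 2 F p m = 0 := by linear_combination -h1
    exact (mul_eq_zero.mp h3).resolve_left h2
  obtain ⟨w₁, hw₁⟩ := Cfsg.Agent.Lib.Helper40.exists_sympForm_eq_one 2 v₁ hv₁0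
  obtain ⟨w₂, hw₂⟩ := Cfsg.Agent.Lib.Helper40.exists_sympForm_eq_one 2 v₂ hv₂0
  obtain ⟨u₁, hu₁def⟩ : ∃ u₁ : Vd 2 F, u₁ = (-(2 : F)⁻¹) • (w₁ + X *ᵥ w₁) := ⟨_, rfl⟩
  obtain ⟨u₂, hu₂def⟩ : ∃ u₂ : Vd 2 F, u₂ = (-(2 : F)⁻¹) • (w₂ - X *ᵥ w₂) := ⟨_, rfl⟩
  have hXu₁ : X *ᵥ u₁ = u₁ := by
    rw [hu₁def, Matrix.mulVec_smul, Matrix.mulVec_add, hTT, add_comm]
  have hXu₂ : X *ᵥ u₂ = -u₂ := by
    rw [hu₂def, Matrix.mulVec_smul, Matrix.mulVec_sub, hTT, ← smul_neg, neg_sub]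
  have h11 : sympForm 2 F u₁ v₁ = 1 := by
    have h1 := hpres (X *ᵥ w₁) v₁
    rw [hTT, hXv₁] at h1
    have h3 : sympForm 2 F w₁ v₁ = -1 := by rw [sf_swap, hw₁]
    rw [hu₁def, sf_smul_left, sf_add_left, ← h1, h3]
    field_simp
    ring
  have h22 : sympForm 2 F u₂ v₂ = 1 := by
    have h1 := hpres (X *ᵥ w₂) v₂
    rw [hTT, hXv₂, hnegr] at h1
    have h3 : sympForm 2 F w₂ v₂ = -1 := by rw [sf_swap, hw₂]
    have h4 : sympForm 2 F (X *ᵥ w₂) v₂ = 1 := by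
      rw [h3] at h1
      linear_combination -h1
    rw [hu₂def, sf_smul_left, sub_eq_add_neg, sf_add_left, hneg, h4, h3]
    field_simp
    ring
  obtain ⟨g, hg, hg1, hg2, hg3, hg4⟩ := exists_spGL_of_four v₁ u₁ v₂ u₂ h11 h22
    (horth v₁ v₂ hXv₁ hXv₂) (horth v₁ u₂ hXv₁ hXu₂) (horth u₁ v₂ hXu₁ hXv₂)
    (horth u₁ u₂ hXu₁ hXu₂)
  refine ⟨g, hg, ?_⟩
  apply Matrix.ext_of_mulVec_single
  intro i
  rw [← Matrix.mulVec_mulVec, ← Matrix.mulVec_mulVec, Matrix.diagonal_mulVec_single]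
  rcases i with a | a <;> fin_cases a
  · simp only [Fin.zero_eta, Sum.elim_inl, Matrix.cons_val_zero, mul_one]
    rw [hg1, hXv₁]
  · simp only [Fin.mk_one, Sum.elim_inl, Matrix.cons_val_one, Matrix.cons_val_zero, mul_one]
    rw [Pi.single_neg, Matrix.mulVec_neg, hg3, hXv₂]
  · simp only [Fin.zero_eta, Sum.elim_inr, Matrix.cons_val_zero, mul_one]
    rw [hg2, hXu₁]
  · simp only [Fin.mk_one, Sum.elim_inr, Matrix.cons_val_one, Matrix.cons_val_zero, mul_one]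
    rw [Pi.single_neg, Matrix.mulVec_neg, hg4, hXu₂]

/-- [NFP] -/
theorem pkgNFP : PkgNFP.{u} := by
  intro F _ _ h2 x₁ hx₁ x₂ hx₂ hs₁ hs₂ hn₁ hm₁ hn₂ hm₂
  obtain ⟨g₁, hg₁, e₁⟩ := nfp_one h2 x₁ hx₁ hs₁ hn₁ hm₁
  obtain ⟨g₂, hg₂, e₂⟩ := nfp_one h2 x₂ hx₂ hs₂ hn₂ hm₂
  exact conj_of_normal_form 2 _ x₁ x₂ g₁ g₂ hg₁ hg₂ e₁ e₂

end Cfsg.Agent.Lib.Helper8.FXSP
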